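import Cfsg.Agent.H155.TC.Pau
import Cfsg.Agent.H155.TC.Cyc
import Cfsg.Agent.BpSpor.MBigEleven
import Cfsg.Agent.H875.M23.TraceChar

/-!
# The value of the character of degree `196883` at an element of order 35 of `2^(1+24).Co1` (helper155)
-/

set_option autoImplicit false
set_option maxRecDepth 100000

namespace Cfsg.Agent.H155.TC.Val

open Cfsg Cfsg.Agent.Monster.VecEngine Cfsg.Agent.Monster Cfsg.Agent.Monster.VecSpace
open Cfsg.Agent.MonsterX Cfsg.Agent.MonsterX.ProgBase Cfsg.Agent.MonsterX.Space Cfsg.Agent.MonsterX.MatAct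
open Cfsg.Agent.MonsterX.CoGens Cfsg.Agent.MonsterX.USide Cfsg.Agent.MonsterX.UOnto
open Cfsg.Agent.MonsterX.Short Cfsg.Agent.MonsterX.KX Cfsg.Agent.MonsterX.LabPl
open Cfsg.Agent.Monster.PauliBasic Cfsg.Agent.Monster.PauliClif Cfsg.Agent.Monster.PauliRep
open Cfsg.Agent.Monster.PauliPlanes Cfsg.Agent.Monster.TensorProg
open Cfsg.Agent.MonsterX.KRows Cfsg.Agent.MonsterX.KAsm Cfsg.Agent.SporadicStructure.Co0Base
open Cfsg.Agent.MonsterX.KInst (labFacts)
open Cfsg.Agent.H831.FF (mat)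
open Cfsg.Agent.H155.TC.Tr Cfsg.Agent.H155.TC.Pau
open Cfsg.Agent.MonsterU.Lam2 (L2 cl)
open Matrix

/-! ### Orthogonality -/

theorem F_ΘΘ (f g : B 12 → ℚ) (v w : GolayPt → ℚ) : F (Θ f v) (Θ g w) = (f ⬝ᵥ g) * (v ⬝ᵥ w) := by
  rw [F_sum, sum_lanes (fun i => (Θ f v).1 i * (Θ g w).1 i)]
  have e1 : ∑ p, ∑ q, (Θ f v).1 (lane p q) * (Θ g w).1 (lane p q) = 0 := by
    refine Finset.sum_eq_zero fun p _ => Finset.sum_eq_zero fun q _ => ?_
    rw [Θ_supp f v _ (disj mat_UW (ln_U p q).2), zero_mul]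
  have e2 : ∑ i : Lane U, (if SL.testBit i.1 = true then (Θ f v).1 i * (Θ g w).1 i else 0) = 0 := by
    refine Finset.sum_eq_zero fun i _ => ?_
    split_ifs with hi
    · rw [Θ_supp f v _ (disj SL_UW hi), zero_mul]
    · rfl
  rw [e1, e2, zero_add, zero_add]
  unfold dotProduct
  rw [Finset.sum_mul_sum]
  refine Finset.sum_congr rfl fun b _ => Finset.sum_congr rfl fun p _ => ?_
  rw [Θ_apply, Θ_apply, Tf_of _ _ (laneW_UW b p), Tf_of _ _ (laneW_UW b p), vec_laneW, pt_laneW]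
  ring

variable {k : V ≃ₗ[ℚ] V} {A : Co0} {α : Pauli 12 ≃* Pauli 12} {T : (B 12 → ℚ) ≃ₗ[ℚ] (B 12 → ℚ)}

theorem rt_dot (v w : leechLattice) : rt v ⬝ᵥ rt w =
    ((dotInt (v : GolayPt → ℤ) (w : GolayPt → ℤ) : ℤ) : ℚ) := (dot_rt v w).symm

theorem T_dot (hk : k ∈ Conc.G) (h : Act k A α T) (f g : B 12 → ℚ) : T f ⬝ᵥ T g = f ⬝ᵥ g := by
  let i : GolayPt := ptS 0
  have h1 := Conc.G_isom k hk (Θ f (rt (e8 i))) (Θ g (rt (e8 i)))
  rw [h.act_Θ, h.act_Θ, F_ΘΘ, F_ΘΘ, rt_dot, rt_dot, Cfsg.Agent.LeechMat.Core.co0_dotInt, ← rt_dot] at h1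
  have h2 : rt (e8 i) ⬝ᵥ rt (e8 i) = 64 := by
    rw [rt_e8]
    unfold dotProduct
    rw [Finset.sum_eq_single i]
    · rw [Pi.single_eq_same]
      norm_num
    · intro j _ hj
      rw [Pi.single_eq_of_ne hj, zero_mul]
    · intro hi
      exact absurd (Finset.mem_univ _) hi
  rw [h2] at h1
  linarith

theorem tr_W (T : (B 12 → ℚ) ≃ₗ[ℚ] (B 12 → ℚ)) : tr T = ∑ b, T (Pi.single b 1) b := by
  refine trace_of_frame (fun b => LinearMap.proj b) (fun b => Pi.single b 1) (fun x => ?_) _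
  funext c
  rw [Finset.sum_apply, Finset.sum_eq_single c]
  · rw [Pi.smul_apply, Pi.single_eq_same]
    simp
  · intro b _ hb
    rw [Pi.smul_apply, Pi.single_eq_of_ne (Ne.symm hb), smul_zero]
  · intro hc
    exact absurd (Finset.mem_univ _) hc

theorem dot_single (f : B 12 → ℚ) (b : B 12) : f ⬝ᵥ Pi.single b 1 = f b := by
  rw [dotProduct_single, mul_one]

theorem tr_inv (hk : k ∈ Conc.G) (h : Act k A α T) : tr T⁻¹ = tr T := by
  rw [tr_W, tr_W]
  refine Finset.sum_congr rfl fun b _ => ?_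
  rw [← dot_single (T⁻¹ (Pi.single b 1)) b, ← T_dot hk h]
  have e : T (T⁻¹ (Pi.single b 1)) = Pi.single b 1 := T.apply_symm_apply _
  rw [e, dotProduct_comm, dot_single]

theorem tr_sq (hk : k ∈ Conc.G) (h : Act k A α T) (hf : ∀ p, ab (α p) = ab p → ab p = 0) : tr T * tr T = 1 := by
  have h1 := trace_mul_inv (n := 12) (α := α) (T := T) h.act_ρ hf
  rwa [tr_inv hk h] at h1

theorem ab_ne_of_Sh {x : Pauli 12} (hx : x ∈ Sh) : ab x ≠ 0 := by
  intro h
  have h1 := psi_lam x hx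
  rw [h] at h1
  obtain ⟨w, hw⟩ := Cfsg.Agent.MonsterX.Psi.psi_eq_zero h1
  have h2 := lam_norm x hx
  rw [hw] at h2
  have h3 : sqNorm ((2 • w : leechLattice) : GolayPt → ℤ) = 4 * sqNorm (w : GolayPt → ℤ) := by
    have h4 : ((2 • w : leechLattice) : GolayPt → ℤ) = (2 : ℤ) • (w : GolayPt → ℤ) := by
      funext j
      show ((2 • (w : GolayPt → ℤ)) j) = _
      simp
    rw [h4, Cfsg.Agent.LeechMat.Core.sqNorm_smul]
    norm_num
  obtain ⟨m, hm⟩ := Cfsg.Agent.MonsterU.Lam2.dvd_norm w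
  rw [h3, hm] at h2
  omega

theorem hfix_of (hf : ∀ p, ab (α p) = ab p → ab p = 0) : ∀ x ∈ Sh, ab (α x) ≠ ab x :=
  fun x hx h => ab_ne_of_Sh hx (hf x h)

/-! ### Fixed vectors of elements of `Co0` -/

/-- no fixed vectors modulo 2, no fixed vectors -/
theorem fix_zero {B : Co0} (h : ∀ v : L2, (QuotientGroup.mk B : Spor.Co1) • v = v → v = 0) {w : leechLattice}
    (hw : B • w = w) : w = 0 := by
  by_contra hne
  have key : ∀ n : ℕ, ∀ w : leechLattice, B • w = w → w ≠ 0 → sqNorm (w : GolayPt → ℤ) ≠ n := by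
    intro n
    induction n using Nat.strong_induction_on with
    | _ n ih =>
      intro w hw hne hn
      have h1 : cl w = 0 := by
        apply h
        rw [Cfsg.Agent.MonsterU.Lam2.mk_smul, Cfsg.Agent.MonsterU.Lam2.smul_cl, hw]
      obtain ⟨v, rfl⟩ := Cfsg.Agent.MonsterU.Lam2.cl_eq_zero.1 h1
      have h2 : B • v = v := by
        rw [Cfsg.Agent.MonsterU.Lam2.smul_two] at hw
        have h3 : (2 : ℕ) • (B • v - v) = 0 := by rw [smul_sub, hw, sub_self]
        have h4 : B • v - v = 0 := by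
          apply Subtype.ext
          funext j
          have h5 := congrFun (congrArg Subtype.val h3) j
          have h6 : (2 : ℤ) * ((B • v - v : leechLattice) : GolayPt → ℤ) j = 0 := by
            have : (((2 : ℕ) • (B • v - v) : leechLattice) : GolayPt → ℤ) j =
              2 * ((B • v - v : leechLattice) : GolayPt → ℤ) j := by
              show ((2 • ((B • v - v : leechLattice) : GolayPt → ℤ)) j) = _
              simp
            rw [← this]
            exact h5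
          show ((B • v - v : leechLattice) : GolayPt → ℤ) j = 0
          omega
        exact sub_eq_zero.1 h4
      have hv : v ≠ 0 := by
        rintro rfl
        exact hne (smul_zero _)
      have h3 : sqNorm ((2 • v : leechLattice) : GolayPt → ℤ) = 4 * sqNorm (v : GolayPt → ℤ) := by
        have h4 : ((2 • v : leechLattice) : GolayPt → ℤ) = (2 : ℤ) • (v : GolayPt → ℤ) := by
          funext j
          show ((2 • (v : GolayPt → ℤ)) j) = _
          simp
        rw [h4, Cfsg.Agent.LeechMat.Core.sqNorm_smul]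
        norm_num
      have h5 := Cfsg.Agent.LeechMat.Core.sqNorm_nonneg (v : GolayPt → ℤ)
      have h6 : sqNorm (v : GolayPt → ℤ) ≠ 0 := by
        intro h7
        exact hv (Subtype.ext (Cfsg.Agent.LeechMat.Core.sqNorm_eq_zero h7))
      obtain ⟨m, hm⟩ := Int.eq_ofNat_of_zero_le h5
      rw [h3, hm] at hn
      rw [hm] at h6
      have h8 : (4 * m : ℕ) = n := by exact_mod_cast hn
      have h9 : m ≠ 0 := by
        intro h10
        exact h6 (by rw [h10]; rfl)
      exact ih m (by omega) v h2 hv (by rw [hm])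
  obtain ⟨m, hm⟩ := Int.eq_ofNat_of_zero_le (Cfsg.Agent.LeechMat.Core.sqNorm_nonneg (w : GolayPt → ℤ))
  exact key m w hw hne (by rw [hm])

/-- `N = 1 + B + B² + B³ + B⁴ = 0` -/
theorem sum_zero {B : Co0} (h : ∀ v : L2, (QuotientGroup.mk B : Spor.Co1) • v = v → v = 0) (h5 : B ^ 5 = 1) :
    mat B ^ 4 + mat B ^ 3 + mat B ^ 2 + mat B + 1 = 0 := by
  have key : ∀ i : GolayPt, B ^ 4 • e8 i + B ^ 3 • e8 i + B ^ 2 • e8 i + B • e8 i + e8 i = 0 := by
    intro i
    apply fix_zero h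
    rw [Cfsg.Agent.LeechMat.Core.co0_smul_add, Cfsg.Agent.LeechMat.Core.co0_smul_add,
      Cfsg.Agent.LeechMat.Core.co0_smul_add, Cfsg.Agent.LeechMat.Core.co0_smul_add, ← mul_smul, ← mul_smul, ← mul_smul,
      ← mul_smul, ← pow_succ', ← pow_succ', ← pow_succ', ← pow_two, h5, one_smul]
    abel
  ext j i
  have h1 := congrFun (congrArg Subtype.val (key i)) j
  have h2 : (((B ^ 4 • e8 i : leechLattice) : GolayPt → ℤ) j + ((B ^ 3 • e8 i : leechLattice) : GolayPt → ℤ) j +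
    ((B ^ 2 • e8 i : leechLattice) : GolayPt → ℤ) j + ((B • e8 i : leechLattice) : GolayPt → ℤ) j +
    ((e8 i : leechLattice) : GolayPt → ℤ) j : ℤ) = 0 := h1
  have h3 : ∀ C : Co0, mat C j i = (((C • e8 i : leechLattice) : GolayPt → ℤ) j : ℚ) / 8 := fun _ => rfl
  rw [← map_pow, ← map_pow, ← map_pow, ← map_one mat, Matrix.add_apply, Matrix.add_apply, Matrix.add_apply,
    Matrix.add_apply, h3, h3, h3, h3, h3, one_smul, ← add_div, ← add_div, ← add_div, ← add_div]
  have h4 := congrArg (Int.cast : ℤ → ℚ) h2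
  push_cast at h4
  rw [h4]
  simp

theorem mat_injective : Function.Injective mat := by
  intro B C h
  apply co0_ext_e8
  intro i
  apply Subtype.ext
  funext j
  have h1 := congrFun (congrFun h j) i
  have h3 : ∀ C : Co0, mat C j i = (((C • e8 i : leechLattice) : GolayPt → ℤ) j : ℚ) / 8 := fun _ => rfl
  rw [h3, h3] at h1
  have h4 := (div_left_inj' (by norm_num : (8 : ℚ) ≠ 0)).1 h1
  exact_mod_cast h4

theorem card_pt : Fintype.card GolayPt = 24 := by decide +kernel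

/-- the trace of an element of order 35 -/
theorem trace_35 {A : Co0} (h35 : A ^ 35 = 1) (hA5 : A ^ 5 ≠ 1)
    (h : ∀ v : L2, (QuotientGroup.mk (A ^ 7) : Spor.Co1) • v = v → v = 0) :
    (mat A).trace = 1 ∧ (mat A * mat A).trace = 1 := by
  have h0 := sum_zero h (by rw [← pow_mul, h35])
  have e : mat (A ^ 7) = mat A ^ 7 := map_pow _ _ _
  rw [e] at h0
  simp only [← pow_mul] at h0
  have h5 : mat A ^ 5 ≠ 1 := by
    intro h1
    apply hA5
    apply mat_injective
    rw [map_pow, map_one, h1]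
  have hM35 : mat A ^ 35 = 1 := by rw [← map_pow, h35, map_one]
  constructor
  · exact Cyc.trace_one card_pt h0 h5
  · apply Cyc.trace_one card_pt
    · rw [← pow_two]
      simp only [← pow_mul]
      have e56 : mat A ^ (2 * 28) = mat A ^ 21 := by
        rw [show 2 * 28 = 35 + 21 by norm_num, pow_add, hM35, one_mul]
      have e42 : mat A ^ (2 * 21) = mat A ^ 7 := by
        rw [show 2 * 21 = 35 + 7 by norm_num, pow_add, hM35, one_mul]
      rw [e56, e42]
      have h6 : mat A ^ (7 * 4) + mat A ^ (7 * 3) + mat A ^ (7 * 2) + mat A ^ 7 + 1 = 0 := h0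
      rw [← h6]
      norm_num
      abel
    · rw [← pow_two, ← pow_mul]
      intro h1
      apply h5
      have h6 : mat A ^ 5 = mat A ^ (2 * 5) * (mat A ^ (2 * 5)) * (mat A ^ (2 * 5)) * (mat A ^ (2 * 5)) := by
        rw [← pow_add, ← pow_add, ← pow_add, show 2 * 5 + 2 * 5 + 2 * 5 + 2 * 5 = 35 + 5 by norm_num, pow_add, hM35,
          one_mul]
      rw [h6, h1]
      simp

/-! ### The value -/

open Cfsg.Agent.BpSpor.MBigModel
open Subgroup (centralizer mem_centralizer_singleton_iff)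

theorem exists_act' (x : centralizer ({zz} : Set MG)) : ∃ A α T, Act ((x : MG) : V ≃ₗ[ℚ] V) A α T ∧
    pi x = QuotientGroup.mk A := by
  have hK : (x : MG) ∈ KDone.K.K := LThreeB.Row.cent (x : MG) (mem_centralizer_singleton_iff.1 x.2)
  have hC : ((x : MG) : V ≃ₗ[ℚ] V) ∈ Conc.C := Subgroup.mem_subgroupOf.1 hK
  obtain ⟨A, α, T, h⟩ := exists_act KDone.R _ hC
  exact ⟨A, α, T, h, LThreeMB.KChart.pi_eq LThreeB.Row.cent (c := x) (A := A) h.act_u⟩

theorem conj_iota {x : MG} {A : Co0} {α : Pauli 12 ≃* Pauli 12} {T : (B 12 → ℚ) ≃ₗ[ℚ] (B 12 → ℚ)}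
    (h : Act (x : V ≃ₗ[ℚ] V) A α T) (p : Pauli 12) : x * KDone.K.ι p = KDone.K.ι (α p) * x := by
  refine KLift.conj_ι (M := KDone.K) (k := x) (A := A) (α := α) (T := T.toLinearMap) ?_ p
  exact { act_u := h.act_u
          act_sh := h.compat.act_sh
          act_X := fun x _ => h.act_X x
          act_lam := h.compat.act_lam
          act_Θ := h.act_Θ
          act_ρ := h.act_ρ }

theorem ι_inj : Function.Injective KDone.K.ι :=
  KDone.K.ι_injective fun p hp => KDone.lft.center p fun y => mul_inv_eq_iff_eq_mul.1 (hp y)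

theorem fix_alpha {x : centralizer ({zz} : Set MG)} {A : Co0} {α : Pauli 12 ≃* Pauli 12}
    {T : (B 12 → ℚ) ≃ₗ[ℚ] (B 12 → ℚ)} (h : Act ((x : MG) : V ≃ₗ[ℚ] V) A α T)
    (hfix : ∀ v : L2, pi x • v = v → v = 0) : ∀ p, ab (α p) = ab p → ab p = 0 := by
  intro p hp
  have hz : KDone.K.ι (Pauli.z 12) = zz := rfl
  have hmem : ∀ q, KDone.K.ι q ∈ KDone.K.ι.range := fun q => ⟨q, rfl⟩
  have h1 := chart.eta_conj x (KDone.K.ι p) (hmem p)
  rw [conj_iota h p, mul_inv_cancel_right] at h1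
  have h2 : LThreeMB.KChart.eta KDone.lft (KDone.K.ι (α p)) = LThreeMB.KChart.eta KDone.lft (KDone.K.ι p) := by
    rcases (ab_eq_iff _ _).1 hp with h3 | h3
    · rw [h3]
    · rw [h3, map_mul, hz, chart.eta_mul _ (chart.large.z_mem) _ (hmem p),
        (chart.eta_zero _ chart.large.z_mem).2 (Or.inr rfl), zero_add]
  rw [h2] at h1
  have h3 := hfix _ h1.symm
  rcases (chart.eta_zero _ (hmem p)).1 h3 with h4 | h4
  · have h5 : p = 1 := ι_inj (by rw [h4, map_one])
    rw [h5]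
    rfl
  · have h5 : p = Pauli.z 12 := ι_inj (by rw [h4, hz])
    rw [h5]
    rfl

theorem neg_sq : Cfsg.Agent.SporadicA.Co0Basic.negCo0 * Cfsg.Agent.SporadicA.Co0Basic.negCo0 = 1 := by
  apply co0_ext_e8
  intro i
  rw [mul_smul, one_smul]
  show -(-(e8 i)) = e8 i
  exact neg_neg _

theorem mat_neg (A : Co0) : mat (Cfsg.Agent.SporadicA.Co0Basic.negCo0 * A) = -mat A := by
  ext j i
  rw [Matrix.neg_apply]
  show ((((Cfsg.Agent.SporadicA.Co0Basic.negCo0 * A) • e8 i : leechLattice) : GolayPt → ℤ) j : ℚ) / 8 =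
    -((((A • e8 i : leechLattice) : GolayPt → ℤ) j : ℚ) / 8)
  rw [mul_smul]
  have h : ((Cfsg.Agent.SporadicA.Co0Basic.negCo0 • (A • e8 i) : leechLattice) : GolayPt → ℤ) j =
      -((A • e8 i : leechLattice) : GolayPt → ℤ) j := rfl
  rw [h]
  push_cast
  ring

/-- the traces of a preimage in `Co0` of an element of order 35 -/
theorem trace_pre {A : Co0} (ho : orderOf (QuotientGroup.mk A : Spor.Co1) = 35)
    (h7 : ∀ v : L2, (QuotientGroup.mk A : Spor.Co1) ^ 7 • v = v → v = 0) :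
    ((mat A).trace = 1 ∨ (mat A).trace = -1) ∧ (mat A * mat A).trace = 1 := by
  have hc : ∀ g : Co0, Cfsg.Agent.SporadicA.Co0Basic.negCo0 * g = g * Cfsg.Agent.SporadicA.Co0Basic.negCo0 :=
    fun g => (Subgroup.mem_center_iff.1 Cfsg.Agent.SporadicA.Co0Basic.negCo0_mem_center g).symm
  have key : ∀ B : Co0, (QuotientGroup.mk B : Spor.Co1) = QuotientGroup.mk A → B ^ 35 = 1 →
      (mat B).trace = 1 ∧ (mat B * mat B).trace = 1 := by
    intro B hB h35
    apply trace_35 h35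
    · intro h5
      have h1 : (QuotientGroup.mk B : Spor.Co1) ^ 5 = 1 := by
        rw [← QuotientGroup.mk_pow, h5]
        rfl
      rw [hB] at h1
      have h2 := orderOf_dvd_of_pow_eq_one h1
      rw [ho] at h2
      norm_num at h2
    · intro v hv
      apply h7 v
      rw [← hB, ← QuotientGroup.mk_pow]
      exact hv
  have h1 : (QuotientGroup.mk (A ^ 35) : Spor.Co1) = 1 := by
    rw [QuotientGroup.mk_pow, ← ho, pow_orderOf_eq_one]
  have h2 : A ^ 35 ∈ Subgroup.center Co0 := (QuotientGroup.eq_one_iff _).1 h1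
  rcases Cfsg.Agent.SporadicA.Co0Basic.eq_one_or_neg_of_mem_center h2 with h3 | h3
  · obtain ⟨h4, h5⟩ := key A rfl h3
    exact ⟨Or.inl h4, h5⟩
  · have h4 : (Cfsg.Agent.SporadicA.Co0Basic.negCo0 * A) ^ 35 = 1 := by
      have h5 : Commute Cfsg.Agent.SporadicA.Co0Basic.negCo0 A := hc A
      rw [h5.mul_pow, h3, show 35 = 2 * 17 + 1 by norm_num, pow_succ, pow_mul, pow_two, neg_sq, one_pow, one_mul, neg_sq]
    have h6 : (QuotientGroup.mk (Cfsg.Agent.SporadicA.Co0Basic.negCo0 * A) : Spor.Co1) = QuotientGroup.mk A :=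
      (Cfsg.Agent.MonsterU.Lam2.mk_eq_mk.2 ⟨_, Cfsg.Agent.SporadicA.Co0Basic.negCo0_mem_center, hc A⟩).symm
    obtain ⟨h7', h8⟩ := key _ h6 h4
    rw [mat_neg] at h7' h8
    rw [Matrix.trace_neg] at h7'
    refine ⟨Or.inr (by linarith), ?_⟩
    rw [Matrix.neg_mul, Matrix.mul_neg, neg_neg] at h8
    exact h8

/-- **The value of the character of degree `196883`.** -/
theorem chi_val {x : centralizer ({zz} : Set MG)} (ho : orderOf (pi x) = 35)
    (hfix : ∀ v : L2, pi x • v = v → v = 0) (h7 : ∀ v : L2, (pi x) ^ 7 • v = v → v = 0) :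
    Cfsg.Agent.H875.M23.TraceChar.chi (x : MG) = 1 ∨ Cfsg.Agent.H875.M23.TraceChar.chi (x : MG) = -1 := by
  obtain ⟨A, α, T, h, hpi⟩ := exists_act' x
  have hf := fix_alpha h hfix
  rw [hpi] at ho h7
  obtain ⟨h1, h2⟩ := trace_pre ho h7
  have h3 := trace_act h (hfix_of hf)
  have h4 := tr_sq (x : MG).2 h hf
  rw [Cfsg.Agent.H875.M23.TraceChar.chi_eq]
  have h5 : LinearMap.trace ℚ V (((x : MG) : V ≃ₗ[ℚ] V) : V →ₗ[ℚ] V) =
      ((mat A).trace ^ 2 + 1) / 2 + tr T * (mat A).trace := by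
    rw [h3, h2]
    rfl
  rw [h5]
  have h6 : tr T = 1 ∨ tr T = -1 := by
    have h7 : (tr T - 1) * (tr T + 1) = 0 := by linear_combination h4
    rcases mul_eq_zero.1 h7 with h8 | h8
    · left; linarith
    · right; linarith
  rcases h1 with h1 | h1 <;> rcases h6 with h6 | h6 <;> rw [h1, h6] <;> norm_num

end Cfsg.Agent.H155.TC.Val
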